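import Cfsg.Agent.Lib.Helper19.Hea.DataA

/-! Generated file: Todd–Coxeter certificate data and checks. -/

set_option autoImplicit false
set_option maxRecDepth 1000000

namespace Cfsg.Agent.Lib.Helper19.Hea

open Cfsg.Agent.Lib.Helper19.TCS


theorem bnd_ok : bnd cert = true := by decide +kernel

theorem row_ok0 : loop (row cert) 0 2000 = true := by decide +kernel

theorem row_ok1 : loop (row cert) 2000 2000 = true := by decide +kernel

theorem row_ok2 : loop (row cert) 4000 2000 = true := by decide +kernel

theorem row_ok3 : loop (row cert) 6000 501 = true := by decide +kernel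

end Cfsg.Agent.Lib.Helper19.Hea
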