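import Cfsg.Agent.Lib.Helper19.Hea.DataB

/-! Generated file: Todd–Coxeter certificate data and checks. -/

set_option autoImplicit false
set_option maxRecDepth 1000000

namespace Cfsg.Agent.Lib.Helper19.Hea

open Cfsg.Agent.Lib.Helper19.TCS

theorem inv_0 : loop (fun i => and (Nat.blt (f0 i) 2058) (Nat.beq (f0 (f0 i)) i)) 0 2058 = true := by decide +kernel

theorem inv_1 : loop (fun i => and (Nat.blt (f1 i) 2058) (Nat.beq (f1 (f1 i)) i)) 0 2058 = true := by decide +kernel

theorem inv_2 : loop (fun i => and (Nat.blt (f2 i) 2058) (Nat.beq (f2 (f2 i)) i)) 0 2058 = true := by decide +kernel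

theorem inv_3 : loop (fun i => and (Nat.blt (f3 i) 2058) (Nat.beq (f3 (f3 i)) i)) 0 2058 = true := by decide +kernel

theorem inv_4 : loop (fun i => and (Nat.blt (f4 i) 2058) (Nat.beq (f4 (f4 i)) i)) 0 2058 = true := by decide +kernel

theorem inv_5 : loop (fun i => and (Nat.blt (f5 i) 2058) (Nat.beq (f5 (f5 i)) i)) 0 2058 = true := by decide +kernel

theorem inv_6 : loop (fun i => and (Nat.blt (f6 i) 2058) (Nat.beq (f6 (f6 i)) i)) 0 2058 = true := by decide +kernel

theorem cx_0_1 : loop (fun i => Nat.beq (E_0_1 i) i) 0 2058 = true := by decide +kernel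

theorem cx_0_2 : loop (fun i => Nat.beq (E_0_2 i) i) 0 2058 = true := by decide +kernel

theorem cx_0_3 : loop (fun i => Nat.beq (E_0_3 i) i) 0 2058 = true := by decide +kernel

theorem cx_0_4 : loop (fun i => Nat.beq (E_0_4 i) i) 0 2058 = true := by decide +kernel

theorem cx_0_5 : loop (fun i => Nat.beq (E_0_5 i) i) 0 2058 = true := by decide +kernel

theorem cx_0_6 : loop (fun i => Nat.beq (E_0_6 i) i) 0 2058 = true := by decide +kernel

theorem cx_1_2 : loop (fun i => Nat.beq (E_1_2 i) i) 0 2058 = true := by decide +kernel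

theorem cx_1_3 : loop (fun i => Nat.beq (E_1_3 i) i) 0 2058 = true := by decide +kernel

theorem cx_1_4 : loop (fun i => Nat.beq (E_1_4 i) i) 0 2058 = true := by decide +kernel

theorem cx_1_5 : loop (fun i => Nat.beq (E_1_5 i) i) 0 2058 = true := by decide +kernel

theorem cx_1_6 : loop (fun i => Nat.beq (E_1_6 i) i) 0 2058 = true := by decide +kernel

theorem cx_2_3 : loop (fun i => Nat.beq (E_2_3 i) i) 0 2058 = true := by decide +kernel

theorem cx_2_4 : loop (fun i => Nat.beq (E_2_4 i) i) 0 2058 = true := by decide +kernel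

theorem cx_2_5 : loop (fun i => Nat.beq (E_2_5 i) i) 0 2058 = true := by decide +kernel

theorem cx_2_6 : loop (fun i => Nat.beq (E_2_6 i) i) 0 2058 = true := by decide +kernel

theorem cx_3_4 : loop (fun i => Nat.beq (E_3_4 i) i) 0 2058 = true := by decide +kernel

theorem cx_3_5 : loop (fun i => Nat.beq (E_3_5 i) i) 0 2058 = true := by decide +kernel

theorem cx_3_6 : loop (fun i => Nat.beq (E_3_6 i) i) 0 2058 = true := by decide +kernel

theorem cx_4_5 : loop (fun i => Nat.beq (E_4_5 i) i) 0 2058 = true := by decide +kernel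

theorem cx_4_6 : loop (fun i => Nat.beq (E_4_6 i) i) 0 2058 = true := by decide +kernel

theorem cx_5_6 : loop (fun i => Nat.beq (E_5_6 i) i) 0 2058 = true := by decide +kernel

theorem ex_0 : loop (fun i => Nat.beq (X_0 i) i) 0 2058 = true := by decide +kernel

theorem ex_1 : loop (fun i => Nat.beq (X_1 i) i) 0 2058 = true := by decide +kernel

theorem ex_2 : loop (fun i => Nat.beq (X_2 i) i) 0 2058 = true := by decide +kernel

theorem ex_3 : loop (fun i => Nat.beq (X_3 i) i) 0 2058 = true := by decide +kernel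

end Cfsg.Agent.Lib.Helper19.Hea
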