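import Cfsg.Agent.Lib.Helper19.Hea.DataB

/-! Generated file: Todd–Coxeter certificate data and checks. -/

set_option autoImplicit false
set_option maxRecDepth 1000000

namespace Cfsg.Agent.Lib.Helper19.Hea

open Cfsg.Agent.Lib.Helper19.TCS

theorem cl_0 : loop (chkCl cB sgw 1 137) 1 136 = true := by decide +kernel

theorem re_0 : loop (chkRe cB sgw tHP 17 131071 1) 2 135 = true := by decide +kernel

theorem cl_1 : loop (chkCl cB sgw 137 273) 137 136 = true := by decide +kernel

theorem re_1 : loop (chkRe cB sgw tHP 17 131071 137) 138 135 = true := by decide +kernel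

theorem cl_2 : loop (chkCl cB sgw 273 698) 273 425 = true := by decide +kernel

theorem re_2 : loop (chkRe cB sgw tHP 17 131071 273) 274 424 = true := by decide +kernel

theorem cl_3 : loop (chkCl cB sgw 698 2058) 698 1360 = true := by decide +kernel

theorem re_3 : loop (chkRe cB sgw tHP 17 131071 698) 699 1359 = true := by decide +kernel

end Cfsg.Agent.Lib.Helper19.Hea
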